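import Mathlib
import Cfsg.Agent.H86.OrderCounts

/-!
# Numbers of elements of given orders: Sylow and centralizer relations
-/

namespace Cfsg.Agent.H80.OrderTypeAlt

open Subgroup
open Cfsg.Agent.H86 (orderCount)

variable {G : Type*} [Group G] [Finite G]

/-- The set of sizes of same-order classes. -/
def sizeSet (G : Type*) [Group G] : Set ℕ :=
  (fun m : ℕ => Nat.card {g : G // orderOf g = m}) '' Set.range (orderOf : G → ℕ)

theorem exists_of_orderCount_ne_zero {m : ℕ} (h : orderCount G m ≠ 0) : ∃ g : G, orderOf g = m := by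
  by_contra hc
  push Not at hc
  have : IsEmpty {g : G // orderOf g = m} := ⟨fun g => hc g g.2⟩
  exact h (Nat.card_of_isEmpty)

theorem orderCount_mem_sizeSet {m : ℕ} (h : orderCount G m ≠ 0) : orderCount G m ∈ sizeSet G := by
  obtain ⟨g, rfl⟩ := exists_of_orderCount_ne_zero h
  exact ⟨orderOf g, ⟨g, rfl⟩, rfl⟩

theorem exists_of_mem_sizeSet {v : ℕ} (h : v ∈ sizeSet G) :
    ∃ m, orderCount G m = v ∧ orderCount G m ≠ 0 := by
  obtain ⟨_, ⟨g, rfl⟩, rfl⟩ := h
  exact ⟨orderOf g, rfl, H86.orderCount_pos.ne'⟩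

theorem dvd_card_of_orderCount_ne_zero {m : ℕ} (h : orderCount G m ≠ 0) : m ∣ Nat.card G := by
  obtain ⟨g, rfl⟩ := exists_of_orderCount_ne_zero h
  exact orderOf_dvd_natCard g

theorem orderCount_ne_zero_of_dvd {p : ℕ} [Fact p.Prime] (h : p ∣ Nat.card G) :
    orderCount G p ≠ 0 := by
  obtain ⟨g, hg⟩ := exists_prime_orderOf_dvd_card' (G := G) p h
  exact hg ▸ H86.orderCount_pos.ne'

/-- Splitting the group by the element orders. -/
theorem card_eq_sum (L : Finset ℕ) (hL : ∀ m, orderCount G m ≠ 0 → m ∈ L) :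
    Nat.card G = ∑ m ∈ L, orderCount G m := by
  classical
  let _ : Fintype G := Fintype.ofFinite _
  rw [Nat.card_eq_fintype_card, ← Finset.card_univ,
    Finset.card_eq_sum_card_fiberwise (f := orderOf) (t := L)
      (fun g _ => hL _ H86.orderCount_pos.ne')]
  refine Finset.sum_congr rfl fun m _ => ?_
  simp [orderCount, Nat.card_eq_fintype_card, Fintype.card_subtype]

/-- Frobenius's theorem for a prime power. -/
theorem pow_dvd_sum {p b : ℕ} (hp : p.Prime) (h : p ^ b ∣ Nat.card G) :
    p ^ b ∣ ∑ i ∈ Finset.range (b + 1), orderCount G (p ^ i) := by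
  have h1 := H86.dvd_sum_orderCount (G := G) (pow_ne_zero b hp.ne_zero) h
  rwa [Nat.sum_divisors_prime_pow hp] at h1

/-- A cyclic Sylow subgroup generated by an element `y` of order `p ^ b`. -/
theorem sylow_cyclic_counts {p b : ℕ} [hp : Fact p.Prime]
    (hb : (Nat.card G).factorization p = b) (hy : orderCount G (p ^ b) ≠ 0) :
    orderCount G (p ^ b) = Nat.card (Sylow p G) * (p ^ b).totient ∧
      ∀ i, orderCount G (p ^ i) ≤ Nat.card (Sylow p G) * (p ^ i).totient := by
  classical
  have hPcard : ∀ P : Sylow p G, Nat.card (P : Subgroup G) = p ^ b := fun P => by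
    rw [P.card_eq_multiplicity, hb]
  obtain ⟨y, hy⟩ := exists_of_orderCount_ne_zero hy
  have hcyc : ∀ P : Sylow p G, IsCyclic (P : Subgroup G) := by
    intro P
    obtain ⟨P₀, hP₀⟩ := (IsPGroup.of_card (n := b)
      (by rw [Nat.card_zpowers, hy]) : IsPGroup p (zpowers y)).exists_le_sylow
    have e : zpowers y = P₀ := eq_of_le_of_card_ge hP₀ (by rw [Nat.card_zpowers, hy, hPcard])
    have : IsCyclic (P₀ : Subgroup G) := by rw [← e]; infer_instance
    exact isCyclic_of_surjective (P₀.equiv P).toMonoidHom (P₀.equiv P).surjective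
  let _ : Fintype (Sylow p G) := Fintype.ofFinite _
  have hsigma : ∀ i, Nat.card (Σ P : Sylow p G, {x : (P : Subgroup G) // orderOf x = p ^ i}) =
      if i ≤ b then Nat.card (Sylow p G) * (p ^ i).totient else 0 := by
    intro i
    rw [Nat.card_sigma]
    have h1 : ∀ P : Sylow p G, Nat.card {x : (P : Subgroup G) // orderOf x = p ^ i} =
        if i ≤ b then (p ^ i).totient else 0 := by
      intro P
      have := hcyc P
      let _ : Fintype (P : Subgroup G) := Fintype.ofFinite _
      split_ifs with hi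
      · rw [Nat.card_eq_fintype_card, Fintype.card_subtype]
        exact IsCyclic.card_orderOf_eq_totient
          (by rw [← Nat.card_eq_fintype_card, hPcard]; exact pow_dvd_pow p hi)
      · have : IsEmpty {x : (P : Subgroup G) // orderOf x = p ^ i} := ⟨fun x => hi <| by
          have h2 := orderOf_dvd_natCard x.1
          rw [x.2, hPcard] at h2
          exact (Nat.pow_dvd_pow_iff_le_right hp.out.one_lt).mp h2⟩
        exact Nat.card_of_isEmpty
    rw [Finset.sum_congr rfl fun P _ => h1 P, Finset.sum_const, Finset.card_univ,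
      ← Nat.card_eq_fintype_card, smul_eq_mul]
    split_ifs <;> simp
  let f : ∀ i, (Σ P : Sylow p G, {x : (P : Subgroup G) // orderOf x = p ^ i}) →
      {g : G // orderOf g = p ^ i} :=
    fun i z => ⟨z.2.1, by rw [Subgroup.orderOf_coe]; exact z.2.2⟩
  have hsurj : ∀ i, Function.Surjective (f i) := by
    intro i g
    obtain ⟨P, hP⟩ := (IsPGroup.of_card (n := i)
      (by rw [Nat.card_zpowers, g.2]) : IsPGroup p (zpowers (g : G))).exists_le_sylow
    exact ⟨⟨P, ⟨⟨g, hP (mem_zpowers _)⟩, by rw [Subgroup.orderOf_mk]; exact g.2⟩⟩,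
      Subtype.ext rfl⟩
  have hle : ∀ i, orderCount G (p ^ i) ≤
      if i ≤ b then Nat.card (Sylow p G) * (p ^ i).totient else 0 := fun i =>
    (hsigma i) ▸ Nat.card_le_card_of_surjective (f i) (hsurj i)
  refine ⟨?_, fun i => (hle i).trans (by split_ifs <;> simp)⟩
  have hinj : Function.Injective (f b) := by
    rintro ⟨P, x, hx⟩ ⟨P', x', hx'⟩ h
    have hg : (x : G) = x' := congrArg (fun z : {g : G // orderOf g = p ^ b} => (z : G)) h
    have key : ∀ (Q : Sylow p G) (z : (Q : Subgroup G)), orderOf z = p ^ b →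
        zpowers (z : G) = Q := fun Q z hz =>
      eq_of_le_of_card_ge (zpowers_le.mpr z.2)
        (by rw [Nat.card_zpowers, Subgroup.orderOf_coe, hz, hPcard])
    have hPP : P = P' := Sylow.ext (by rw [← key P x hx, hg, key P' x' hx'])
    subst hPP
    obtain rfl : x = x' := Subtype.ext hg
    rfl
  have := Nat.card_congr (Equiv.ofBijective (f b) ⟨hinj, hsurj b⟩)
  rw [hsigma b, if_pos le_rfl] at this
  exact this.symm

/-- A prime dividing the order exactly once. -/
theorem orderCount_prime {p : ℕ} [hp : Fact p.Prime]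
    (hb : (Nat.card G).factorization p = 1) :
    orderCount G p = Nat.card (Sylow p G) * (p - 1) := by
  have hd : p ∣ Nat.card G := Nat.dvd_of_factorization_pos (by omega)
  have h := (sylow_cyclic_counts hb (by rw [pow_one]; exact orderCount_ne_zero_of_dvd hd)).1
  rwa [pow_one, Nat.totient_prime hp.out] at h

/-- Elements of order `p * k` fibre over the elements of order `p`. -/
theorem orderCount_prime_mul {p k : ℕ} [hp : Fact p.Prime]
    (hb : (Nat.card G).factorization p = 1) (hk : ¬ p ∣ k) :
    ∃ e, k.totient ∣ e ∧ orderCount G (p * k) = orderCount G p * e := by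
  classical
  have hPcard : ∀ P : Sylow p G, Nat.card (P : Subgroup G) = p := fun P => by
    rw [P.card_eq_multiplicity, hb, pow_one]
  rcases Nat.eq_zero_or_pos k with rfl | hk0
  · exact absurd (dvd_zero p) hk
  let P₀ : Sylow p G := default
  let C := fun P : Sylow p G => centralizer ((P : Subgroup G) : Set G)
  refine ⟨Nat.card {y : C P₀ // orderOf y = k}, H86.totient_dvd_card_orderOf k, ?_⟩
  have hcop : Nat.Coprime p k := hp.out.coprime_iff_not_dvd.mpr hk
  have hgen : ∀ x : G, orderOf x = p → ∃ P : Sylow p G, zpowers x = P := fun x hx => by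
    obtain ⟨P, hP⟩ := (IsPGroup.of_card (n := 1)
      (by rw [Nat.card_zpowers, hx, pow_one]) : IsPGroup p (zpowers x)).exists_le_sylow
    exact ⟨P, eq_of_le_of_card_ge hP (by rw [Nat.card_zpowers, hx, hPcard])⟩
  have hfib : ∀ x : {g : G // orderOf g = p}, Nat.card {y : G // Commute (x : G) y ∧ orderOf y = k} =
      Nat.card {y : C P₀ // orderOf y = k} := by
    intro x
    obtain ⟨P, hP⟩ := hgen x x.2
    obtain ⟨g, hg⟩ := MulAction.exists_smul_eq G P P₀
    have hC : ∀ y : G, Commute (x : G) y ↔ y ∈ C P := fun y => by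
      simp only [C]
      rw [← hP, zpowers_eq_closure, centralizer_closure, mem_centralizer_singleton_iff]
      exact ⟨fun h => h.eq.symm, fun h => h.symm⟩
    have hconj : ∀ y : G, y ∈ C P ↔ g * y * g⁻¹ ∈ C P₀ := fun y => by
      simp only [C, mem_centralizer_iff, SetLike.mem_coe, ← hg, Sylow.coe_subgroup_smul,
        mem_pointwise_smul_iff_inv_smul_mem, MulAut.smul_def, MulAut.conj_inv_apply]
      constructor
      · intro h z hz
        have h1 := congrArg (fun w => g * w * g⁻¹) (h _ hz)
        simpa [mul_assoc] using h1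
      · intro h z hz
        have h1 := h (g * z * g⁻¹) (by simpa [mul_assoc] using hz)
        have h2 := congrArg (fun w => g⁻¹ * w * g) h1
        simpa [mul_assoc] using h2
    refine Nat.card_congr (((MulAut.conj g).toEquiv.subtypeEquiv fun y => ?_).trans
      (Equiv.subtypeSubtypeEquivSubtypeInter (fun y : G => y ∈ C P₀)
        (fun y => orderOf y = k)).symm |>.trans (Equiv.subtypeEquivRight fun y => ?_))
    · simp only [MulEquiv.toEquiv_eq_coe, MulEquiv.coe_toEquiv, MulAut.conj_apply]
      rw [hC, hconj]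
      have : orderOf (g * y * g⁻¹) = orderOf y := (MulAut.conj g).orderOf_eq y
      rw [this]
    · rw [Subgroup.orderOf_coe]
  let e : {g : G // orderOf g = p * k} ≃
      Σ x : {g : G // orderOf g = p}, {y : G // Commute (x : G) y ∧ orderOf y = k} := by
    refine Equiv.symm (Equiv.ofBijective (fun z => ⟨(z.1 : G) * z.2.1, ?_⟩) ⟨?_, ?_⟩)
    · rw [z.2.2.1.orderOf_mul_eq_mul_orderOf_of_coprime (by rw [z.1.2, z.2.2.2]; exact hcop),
        z.1.2, z.2.2.2]
    · rintro ⟨⟨x, hx⟩, y, hc, hy⟩ ⟨⟨x', hx'⟩, y', hc', hy'⟩ h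
      have h0 : x * y = x' * y' := congrArg Subtype.val h
      obtain ⟨m, hm⟩ : ∃ m, (k * m) % p = 1 := by
        obtain ⟨m, -, hm⟩ := Nat.exists_mul_mod_eq_one_of_coprime hcop.symm hp.out.one_lt
        exact ⟨m, hm⟩
      have hproj : ∀ (a b : G), orderOf a = p → orderOf b = k → Commute a b →
          (a * b) ^ (k * m) = a := fun a b ha hb hab => by
        rw [hab.mul_pow, pow_mul b, ← hb, pow_orderOf_eq_one, one_pow, mul_one, hb,
          ← pow_mod_orderOf, ha, hm, pow_one]
      obtain rfl : x = x' := by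
        rw [← hproj x y hx hy hc, h0, hproj x' y' hx' hy' hc']
      obtain rfl : y = y' := mul_left_cancel h0
      rfl
    · rintro ⟨g, hg⟩
      obtain ⟨m, -, hm⟩ := Nat.exists_mul_mod_eq_one_of_coprime hcop.symm hp.out.one_lt
      have hgk : orderOf (g ^ k) = p := by
        rw [orderOf_pow_of_dvd hk0.ne' (hg ▸ dvd_mul_left k p), hg, Nat.mul_div_cancel _ hk0]
      set x := g ^ (k * m) with hxdef
      have hx : orderOf x = p := by
        rw [hxdef, pow_mul, orderOf_pow' _ (fun h => by rw [h, mul_zero] at hm; simp at hm), hgk]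
        have hpm : Nat.gcd p m = 1 := (hp.out.coprime_iff_not_dvd.mpr fun h => by
          have := Nat.mod_eq_zero_of_dvd (h.mul_left k)
          omega)
        rw [hpm, Nat.div_one]
      have hy : orderOf (x⁻¹ * g) = k := by
        have hc : Commute x (x⁻¹ * g) :=
          (Commute.refl x).inv_right.mul_right ((Commute.refl g).pow_left _)
        have h1 : (x⁻¹ * g) ^ k = 1 := by
          rw [(((Commute.refl g).pow_left _).inv_left).mul_pow, inv_pow, ← pow_mul]
          rw [inv_mul_eq_one]
          refine pow_eq_pow_iff_modEq.mpr ?_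
          rw [hg]
          have h2 : k * m ≡ 1 [MOD p] := by
            rw [Nat.ModEq, hm, Nat.one_mod_eq_one.mpr hp.out.ne_one]
          have h3 := h2.mul_right' k
          rwa [one_mul] at h3
        have h2 : orderOf g ∣ orderOf x * orderOf (x⁻¹ * g) := by
          have := hc.orderOf_mul_dvd_mul_orderOf
          rwa [mul_inv_cancel_left] at this
        rw [hx, hg] at h2
        exact Nat.dvd_antisymm (orderOf_dvd_of_pow_eq_one h1)
          ((Nat.mul_dvd_mul_iff_left hp.out.pos).mp h2)
      exact ⟨⟨⟨x, hx⟩, x⁻¹ * g, (Commute.refl x).inv_right.mul_right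
        ((Commute.refl g).pow_left _), hy⟩, Subtype.ext (mul_inv_cancel_left x g)⟩
  let _ : Fintype G := Fintype.ofFinite _
  rw [orderCount, Nat.card_congr e, Nat.card_sigma, Finset.sum_congr rfl fun x _ => hfib x,
    Finset.sum_const, Finset.card_univ, smul_eq_mul, ← Nat.card_eq_fintype_card]
  rfl

/-- A normal subgroup contains every element of order prime to its index. -/
theorem mem_of_coprime_index {N : Subgroup G} [N.Normal] {g : G}
    (h : (orderOf g).Coprime N.index) : g ∈ N := by
  rw [← QuotientGroup.eq_one_iff, ← orderOf_eq_one_iff]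
  exact Nat.eq_one_of_dvd_coprimes h (orderOf_map_dvd (QuotientGroup.mk' N) g)
    (orderOf_dvd_natCard _)

/-- The elements of order `m` inside a normal subgroup. -/
theorem sum_orderCount_lt_card {N : Subgroup G} [N.Normal] (s : Finset ℕ) (h1 : 1 ∉ s)
    (h : ∀ m ∈ s, m.Coprime N.index) : ∑ m ∈ s, orderCount G m < Nat.card N := by
  classical
  let _ : Fintype G := Fintype.ofFinite _
  have hsub : (s.biUnion fun m => Finset.univ.filter fun g : G => orderOf g = m) ⊂
      Finset.univ.filter fun g : G => g ∈ N := by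
    refine Finset.ssubset_iff_subset_ne.mpr ⟨fun g hg => ?_, fun e => ?_⟩
    · simp only [Finset.mem_biUnion, Finset.mem_filter, Finset.mem_univ, true_and] at hg ⊢
      obtain ⟨m, hm, rfl⟩ := hg
      exact mem_of_coprime_index (h _ hm)
    · have h2 : (1 : G) ∈ Finset.univ.filter fun g : G => g ∈ N := by simp [N.one_mem]
      rw [← e] at h2
      simp [h1] at h2
  have h2 := Finset.card_lt_card hsub
  rw [Finset.card_biUnion (fun a _ b _ hab => Finset.disjoint_left.mpr fun g ha hb => hab <| by
    simp only [Finset.mem_filter] at ha hb; rw [← ha.2, hb.2])] at h2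
  simp only [orderCount, Nat.card_eq_fintype_card, Fintype.card_subtype]
  exact h2

/-- An element of prime order centralizing no other element of a normal subgroup. -/
theorem modEq_one_of_no_commute {N : Subgroup G} [N.Normal] {q : ℕ} [hq : Fact q.Prime] {x : G}
    (hx : orderOf x = q) (h : ∀ y ∈ N, Commute x y → y = 1) : Nat.card N ≡ 1 [MOD q] := by
  have hp : IsPGroup q (zpowers x) := IsPGroup.of_card (n := 1) (by rw [Nat.card_zpowers, hx, pow_one])
  let act : MulAction (zpowers x) N :=
    { smul := fun u y => ⟨(u : G) * y * (u : G)⁻¹, Subgroup.Normal.conj_mem inferInstance _ y.2 _⟩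
      one_smul := fun y => Subtype.ext (show ((1 : zpowers x) : G) * y * ((1 : zpowers x) : G)⁻¹ = y by simp)
      mul_smul := fun u v y => Subtype.ext (show ((u * v : zpowers x) : G) * y * ((u * v : zpowers x) : G)⁻¹ =
          (u : G) * ((v : G) * y * (v : G)⁻¹) * (u : G)⁻¹ by simp [mul_assoc]) }
  have h2 := hp.card_modEq_card_fixedPoints N
  have h3 : Nat.card (MulAction.fixedPoints (zpowers x) N) = 1 := by
    rw [Nat.card_eq_one_iff_unique]
    refine ⟨⟨fun a b => ?_⟩, ⟨⟨1, fun u => Subtype.ext (show (u : G) * 1 * (u : G)⁻¹ = 1 by simp)⟩⟩⟩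
    have key : ∀ a : MulAction.fixedPoints (zpowers x) N, ((a : N) : G) = 1 := fun a => by
      refine h _ (a : N).2 ?_
      have h1 : x * ((a : N) : G) * x⁻¹ = ((a : N) : G) :=
        congrArg Subtype.val (a.2 ⟨x, mem_zpowers x⟩)
      exact mul_inv_eq_iff_eq_mul.mp h1
    exact Subtype.ext (Subtype.ext (by rw [key a, key b]))
  rwa [h3] at h2

end Cfsg.Agent.H80.OrderTypeAlt
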