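import Mathlib

/-!
# Arithmetical search: groups with the same-order class sizes of a small alternating group

A configuration records for each possible prime `p` the exponent `e` of `p` in the group order and
the numbers `t = [c p, c (p ^ 2), ...]` of elements of order `p ^ i`.
-/

namespace Cfsg.Agent.H80.OrderTypeAlt

/-- The numerical data of one case: the odd value, the even values, and for every possible prime
a bound on the exponent of element orders and a bound on the exponent in the group order. -/
structure Case where
  odd : ℕ
  evens : List ℕ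
  primes : List (ℕ × ℕ × ℕ)

/-- One prime: `(p, e, t)`. -/
abbrev Loc := ℕ × ℕ × List ℕ

/-- A prime power factor of an order: `(p, i, e, c p, c (p ^ i))`. -/
abbrev Fac := ℕ × ℕ × ℕ × ℕ × ℕ

/-- Euler's function at a prime power. -/
def phiPow (p i : ℕ) : ℕ := p ^ (i - 1) * (p - 1)

/-- The possible counts at the order `p ^ i`. -/
def layerVals (C : Case) (p i : ℕ) : List ℕ :=
  if p ^ i == 2 then [0, C.odd]
  else 0 :: C.evens.filter fun v => v % phiPow p i == 0 && (!(i == 1) || (v + 1) % p == 0)

/-- All choices of one member of each list. -/
def tuples {α : Type} : List (List α) → List (List α)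
  | [] => [[]]
  | L :: Ls => L.flatMap fun a => (tuples Ls).map fun b => a :: b

/-- Tests on one prime not involving the group order. -/
def locOK (p e : ℕ) (t : List ℕ) : Bool :=
  (1 + t.sum) % p ^ e == 0 &&
    ((List.range t.length).all fun j =>
      (t.getD j 0 == 0 || decide (j + 1 ≤ e)) &&
        (!(t.getD j 0 == 0) || t.getD (j + 1) 0 == 0)) &&
    (e == 0 || !(t.getD 0 0 == 0))

/-- The data allowed at one prime. -/
def locals (C : Case) : ℕ × ℕ × ℕ → List Loc
  | (p, K, E) =>
    ((List.range E).flatMap fun e =>
      ((tuples ((List.range K).map fun j => layerVals C p (j + 1))).filter (locOK p e)).map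
        fun t => (p, e, t))

/-- The group order of a configuration. -/
def ordOf (cfg : List Loc) : ℕ := (cfg.map fun x => x.1 ^ x.2.1).prod

/-- The test at a cyclic Sylow subgroup. -/
def topOK (o : ℕ) : Loc → Bool
  | (p, e, t) => e == 0 || t.getD (e - 1) 0 == 0 ||
      (t.getD (e - 1) 0 % phiPow p e == 0 && t.getD (e - 1) 0 / phiPow p e % p == 1 &&
        (o / p ^ e) % (t.getD (e - 1) 0 / phiPow p e) == 0 &&
        ((List.range t.length).all fun j =>
          decide (t.getD j 0 ≤ t.getD (e - 1) 0 / phiPow p e * phiPow p (j + 1))))

/-- The orders built from the present prime powers. -/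
def factors : List Loc → List (List Fac)
  | [] => [[]]
  | (p, e, t) :: cfg => (factors cfg).flatMap fun r =>
      r :: ((List.range t.length).filter fun j => !(t.getD j 0 == 0)).map fun j =>
        (p, j + 1, e, t.getD 0 0, t.getD j 0) :: r

/-- The number described by a list of factors. -/
def valueOf (d : List Fac) : ℕ := (d.map fun f => f.1 ^ f.2.1).prod

/-- Euler's function of the number described by a list of factors. -/
def phiOf (d : List Fac) : ℕ := (d.map fun f => phiPow f.1 f.2.1).prod

/-- The possible counts at a number described by a list of factors. -/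
def countVals (C : Case) : List Fac → List ℕ
  | [] => [1]
  | [f] => [f.2.2.2.2]
  | d => 0 :: C.evens.filter fun v => v % phiOf d == 0 &&
      d.all fun f => !(f.2.2.1 == 1) || v % (f.2.2.2.1 * (phiOf d / phiPow f.1 f.2.1)) == 0

/-- Mark the attained values. -/
def mark (S : List ℕ) (v : ℕ) (att : List Bool) : List Bool :=
  List.zipWith (fun s a => a || s == v) S att

/-- Reachable totals and attained values. -/
def reach (o : ℕ) (S : List ℕ) : List (List ℕ) → List (ℕ × List Bool)
  | [] => [(0, S.map fun _ => false)]
  | L :: Ls => (reach o S Ls).flatMap fun st =>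
      (L.filter fun v => decide (st.1 + v ≤ o)).map fun v => (st.1 + v, mark S v st.2)

/-- The configuration is impossible. -/
def dead (C : Case) (cfg : List Loc) : Bool :=
  let o := ordOf cfg
  !(cfg.all (topOK o)) ||
    (decide ((factors cfg).map valueOf).Nodup &&
      let Ls := (factors cfg).map (countVals C)
      (decide ((Ls.map fun L => L.foldr max 0).sum < o) ||
        !((reach o (C.odd :: C.evens) Ls).any fun st => st.1 == o && st.2.all id)))

/-- Every configuration other than `target` is impossible. -/
def caseOK (C : Case) (target : List Loc) : Bool :=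
  (tuples (C.primes.map (locals C))).all fun cfg => cfg == target || dead C cfg

/-- The case of `A₄`. -/
def caseFour : Case := ⟨3, [8], [(2, 5, 6), (3, 2, 3)]⟩

/-- The case of `A₅`. -/
def caseFive : Case := ⟨15, [20, 24], [(2, 4, 7), (3, 2, 4), (5, 2, 3)]⟩

/-- The case of `A₆`. -/
def caseSix : Case := ⟨45, [80, 90, 144], [(2, 5, 10), (3, 3, 6), (5, 2, 4), (7, 1, 3)]⟩

theorem caseFour_ok : caseOK caseFour [(2, 2, [3, 0, 0, 0, 0]), (3, 1, [8, 0])] = true := by
  decide +kernel

theorem caseFive_ok :
    caseOK caseFive [(2, 2, [15, 0, 0, 0]), (3, 1, [20, 0]), (5, 1, [24, 0])] = true := by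
  decide +kernel

theorem caseSix_ok : caseOK caseSix
    [(2, 3, [45, 90, 0, 0, 0]), (3, 2, [80, 0, 0]), (5, 1, [144, 0]), (7, 0, [0])] = true := by
  decide +kernel

end Cfsg.Agent.H80.OrderTypeAlt
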