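import Cfsg.Agent.H80.OrderTypeAlt.Basic

/-!
# Sizes of the same-order classes of small alternating groups
-/

namespace Cfsg.Agent.H80.OrderTypeAlt

/-- The number of elements of order `1`, `2`, `3`, `4`, `5`, as computable counts. -/
def smallCounts (n : ℕ) : List ℕ :=
  let U : Finset (alternatingGroup (Fin n)) := Finset.univ
  [(U.filter fun g => g ^ 1 = 1).card, (U.filter fun g => g ^ 2 = 1 ∧ g ≠ 1).card,
    (U.filter fun g => g ^ 3 = 1 ∧ g ≠ 1).card, (U.filter fun g => g ^ 4 = 1 ∧ ¬ g ^ 2 = 1).card,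
    (U.filter fun g => g ^ 5 = 1 ∧ g ≠ 1).card]

theorem orderOf_small {G : Type*} [Monoid G] (g : G)
    (h : g ^ 1 = 1 ∨ g ^ 2 = 1 ∨ g ^ 3 = 1 ∨ g ^ 4 = 1 ∨ g ^ 5 = 1) :
    orderOf g ∈ ({1, 2, 3, 4, 5} : Finset ℕ) := by
  have key : ∀ k, 0 < k → k ≤ 5 → g ^ k = 1 → orderOf g ∈ ({1, 2, 3, 4, 5} : Finset ℕ) := by
    intro k hk hk5 hg
    have hd := orderOf_dvd_of_pow_eq_one hg
    have h1 := Nat.le_of_dvd hk hd
    have h2 : orderOf g ≠ 0 := fun h => by rw [h] at hd; exact hk.ne' (Nat.eq_zero_of_zero_dvd hd)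
    simp only [Finset.mem_insert, Finset.mem_singleton]
    omega
  rcases h with h | h | h | h | h <;> exact key _ (by norm_num) (by norm_num) h

theorem sizeSet_alternating {n : ℕ} {l : List ℕ} (hl : smallCounts n = l)
    (h5 : ∀ g : alternatingGroup (Fin n),
      g ^ 1 = 1 ∨ g ^ 2 = 1 ∨ g ^ 3 = 1 ∨ g ^ 4 = 1 ∨ g ^ 5 = 1) :
    sizeSet ↥(alternatingGroup (Fin n)) = {v | v ∈ l ∧ v ≠ 0} := by
  have hc : ∀ m ∈ ({1, 2, 3, 4, 5} : Finset ℕ),
      H86.orderCount ↥(alternatingGroup (Fin n)) m = (smallCounts n).getD (m - 1) 0 := by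
    intro m hm
    simp only [H86.orderCount, Nat.card_eq_fintype_card, Fintype.card_subtype]
    simp only [Finset.mem_insert, Finset.mem_singleton] at hm
    have := Fact.mk Nat.prime_two
    have := Fact.mk Nat.prime_three
    have : Fact (Nat.Prime 5) := ⟨by norm_num⟩
    rcases hm with rfl | rfl | rfl | rfl | rfl <;> show _ = Finset.card _ <;> congr 1 <;>
      refine Finset.filter_congr fun g _ => ?_
    · rw [orderOf_eq_one_iff, pow_one]
    · exact orderOf_eq_prime_iff
    · exact orderOf_eq_prime_iff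
    · constructor
      · intro h
        refine ⟨by rw [← h, pow_orderOf_eq_one], fun h2 => ?_⟩
        have := Nat.le_of_dvd (by norm_num) (orderOf_dvd_of_pow_eq_one h2)
        omega
      · rintro ⟨h1, h2⟩
        exact orderOf_eq_prime_pow (p := 2) (n := 1) (by simpa using h2) (by simpa using h1)
    · exact orderOf_eq_prime_iff
  ext v
  constructor
  · intro hv
    obtain ⟨m, rfl, h0⟩ := exists_of_mem_sizeSet hv
    obtain ⟨g, rfl⟩ := exists_of_orderCount_ne_zero h0
    refine ⟨?_, h0⟩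
    rw [hc _ (orderOf_small g (h5 g)), ← hl, List.getD_eq_getElem?_getD]
    have hlen : (smallCounts n).length = 5 := rfl
    have := orderOf_small g (h5 g)
    simp only [Finset.mem_insert, Finset.mem_singleton] at this
    have hlt : orderOf g - 1 < (smallCounts n).length := by omega
    rw [List.getElem?_eq_getElem hlt, Option.getD_some]
    exact List.getElem_mem hlt
  · rintro ⟨hv, h0⟩
    rw [← hl] at hv
    obtain ⟨i, hi, rfl⟩ := List.getElem_of_mem hv
    have hlen : (smallCounts n).length = 5 := rfl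
    have hm : i + 1 ∈ ({1, 2, 3, 4, 5} : Finset ℕ) := by
      simp only [Finset.mem_insert, Finset.mem_singleton]; omega
    have h := hc _ hm
    rw [Nat.add_sub_cancel, List.getD_eq_getElem?_getD, List.getElem?_eq_getElem hi,
      Option.getD_some] at h
    rw [← h] at h0 ⊢
    exact orderCount_mem_sizeSet h0

theorem smallCounts_four : smallCounts 4 = [1, 3, 8, 0, 0] := by decide +kernel

theorem smallCounts_five : smallCounts 5 = [1, 15, 20, 0, 24] := by decide +kernel

theorem smallCounts_six : smallCounts 6 = [1, 45, 80, 90, 144] := by decide +kernel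

theorem exponent_four : ∀ g : alternatingGroup (Fin 4),
    g ^ 1 = 1 ∨ g ^ 2 = 1 ∨ g ^ 3 = 1 ∨ g ^ 4 = 1 ∨ g ^ 5 = 1 := by decide +kernel

theorem exponent_five : ∀ g : alternatingGroup (Fin 5),
    g ^ 1 = 1 ∨ g ^ 2 = 1 ∨ g ^ 3 = 1 ∨ g ^ 4 = 1 ∨ g ^ 5 = 1 := by decide +kernel

theorem exponent_six : ∀ g : alternatingGroup (Fin 6),
    g ^ 1 = 1 ∨ g ^ 2 = 1 ∨ g ^ 3 = 1 ∨ g ^ 4 = 1 ∨ g ^ 5 = 1 := by decide +kernel

end Cfsg.Agent.H80.OrderTypeAlt
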