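import Cfsg.Agent.H80.OrderTypeAlt.Sound
import Cfsg.Agent.H80.OrderTypeAlt.Values
import Cfsg.Agent.H30.Basics
import Cfsg.Agent.S0494
import Cfsg.Agent.S0497

/-!
# The alternating groups of degree 4, 5, 6 by their same-order class sizes
-/

namespace Cfsg.Agent.H80.OrderTypeAlt

open Subgroup
open Cfsg.Agent.H86 (orderCount)

theorem caseFour_valid : caseFour.Valid where
  odd_odd := by decide
  odd_one := by decide
  evens_even := by decide
  nodup := by decide
  prime := by
    intro x hx
    simp only [caseFour, List.mem_cons, List.not_mem_nil, or_false] at hx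
    rcases hx with rfl | rfl <;> exact ⟨by norm_num, by norm_num, by decide⟩
  two := by decide
  cover := by decide +kernel
  bound := by decide +kernel

theorem caseFive_valid : caseFive.Valid where
  odd_odd := by decide
  odd_one := by decide
  evens_even := by decide
  nodup := by decide
  prime := by
    intro x hx
    simp only [caseFive, List.mem_cons, List.not_mem_nil, or_false] at hx
    rcases hx with rfl | rfl | rfl <;> exact ⟨by norm_num, by norm_num, by decide⟩
  two := by decide
  cover := by decide +kernel
  bound := by decide +kernel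

theorem caseSix_valid : caseSix.Valid where
  odd_odd := by decide
  odd_one := by decide
  evens_even := by decide
  nodup := by decide
  prime := by
    intro x hx
    simp only [caseSix, List.mem_cons, List.not_mem_nil, or_false] at hx
    rcases hx with rfl | rfl | rfl | rfl <;> exact ⟨by norm_num, by norm_num, by decide +kernel⟩
  two := by decide
  cover := by decide +kernel
  bound := by decide +kernel

variable {G : Type*} [Group G] [Finite G]

theorem four (hS : sizeSet G = {v | v = 1 ∨ v ∈ [3, 8]}) :
    Nonempty (G ≃* ↥(alternatingGroup (Fin 4))) := by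
  classical
  have h := config_eq caseFour_valid hS caseFour_ok
  have hc := ordOf_config caseFour_valid hS
  rw [h] at hc
  have h12 : Nat.card G = 12 := hc.symm
  simp [caseFour, locOf, List.range_succ] at h
  have : Fact (Nat.Prime 3) := ⟨Nat.prime_three⟩
  have hf : (Nat.card G).factorization 3 = 1 := h.2.1
  have hn : Nat.card (Sylow 3 G) = 4 := by
    have h3 := orderCount_prime (G := G) hf
    have h8 : orderCount G 3 = 8 := by simpa using h.2.2.1
    omega
  let φ := MulAction.toPermHom G (Sylow 3 G)
  have hker : φ.ker = ⊥ := by
    let P : Sylow 3 G := default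
    have hP : Nat.card (P : Subgroup G) = 3 := by
      rw [P.card_eq_multiplicity, hf, pow_one]
    have hN := H30.card_sylow_mul_normalizer 3 P
    rw [hn, h12] at hN
    have hNP : normalizer ((P : Subgroup G) : Set G) = P :=
      (eq_of_le_of_card_ge le_normalizer (by rw [hP]; omega)).symm
    have hle : φ.ker ≤ (P : Subgroup G) := fun g hg => by
      rw [← hNP]
      exact Sylow.smul_eq_iff_mem_normalizer.mp
        (by simpa [φ] using congrArg (fun σ : Equiv.Perm (Sylow 3 G) => σ P) (MonoidHom.mem_ker.mp hg))
    by_contra hne
    have heq : φ.ker = P := by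
      refine eq_of_le_of_card_ge hle ?_
      rw [hP]
      have h1 := (card_dvd_of_le hle).trans (dvd_of_eq hP)
      rcases (Nat.dvd_prime Nat.prime_three).mp h1 with h1 | h1
      · exact absurd (Subgroup.card_eq_one.mp h1) hne
      · exact h1.ge
    have hnor : normalizer ((P : Subgroup G) : Set G) = ⊤ :=
      normalizer_eq_top_iff.mpr (heq ▸ MonoidHom.normal_ker φ)
    rw [hnor, card_top, h12] at hN
    omega
  have hinj := (MonoidHom.ker_eq_bot_iff φ).mp hker
  let e : Sylow 3 G ≃ Fin 4 := Finite.equivFinOfCardEq hn
  let ψ : G →* Equiv.Perm (Fin 4) := e.permCongrHom.toMonoidHom.comp φ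
  have hψ : Function.Injective ψ := e.permCongrHom.injective.comp hinj
  have hidx : ψ.range.index = 2 := by
    have h1 := ψ.range.card_mul_index
    rw [← Nat.card_congr (MonoidHom.ofInjective hψ).toEquiv, h12, Nat.card_perm, Nat.card_fin] at h1
    norm_num [Nat.factorial] at h1
    omega
  have heq := Equiv.Perm.eq_alternatingGroup_of_index_eq_two hidx
  exact ⟨(MonoidHom.ofInjective hψ).trans (MulEquiv.subgroupCongr heq)⟩

theorem five (hS : sizeSet G = {v | v = 1 ∨ v ∈ [15, 20, 24]}) :
    Nonempty (G ≃* ↥(alternatingGroup (Fin 5))) := by
  classical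
  have h := config_eq caseFive_valid hS caseFive_ok
  have hc := ordOf_config caseFive_valid hS
  rw [h] at hc
  have h60 : Nat.card G = 60 := hc.symm
  simp [caseFive, locOf, List.range_succ] at h
  have h2 : orderCount G 2 = 15 := odd_value caseFive_valid hS
  have h3 : orderCount G 3 = 20 := by simpa using h.2.1.2.1
  have h5 : orderCount G 5 = 24 := by simpa using h.2.2.2.1
  have : Fact (Nat.Prime 5) := ⟨by norm_num⟩
  have hzero : orderCount G 10 = 0 ∧ orderCount G 15 = 0 := by
    have hs := card_eq_sum (G := G) (Nat.divisors 60) (fun m hm => Nat.mem_divisors.mpr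
      ⟨h60 ▸ dvd_card_of_orderCount_ne_zero hm, by norm_num⟩)
    have hle := Finset.sum_le_sum_of_subset (f := orderCount G)
      (show ({1, 2, 3, 5, 10, 15} : Finset ℕ) ⊆ Nat.divisors 60 by decide +kernel)
    simp [H86.orderCount_one, h2, h3, h5] at hle
    omega
  have : Nontrivial G := Finite.one_lt_card_iff_nontrivial.mp (by omega)
  have : IsSimpleGroup G := ⟨fun N hN => by
    by_contra hcon
    push Not at hcon
    have hmul := N.card_mul_index
    rw [h60] at hmul
    have h1 : 1 < Nat.card N := (one_lt_card_iff_ne_bot N).2 hcon.1
    have hi : N.index ≠ 1 := fun e => hcon.2 (index_eq_one.1 e)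
    have hi0 := index_ne_zero_of_finite (H := N)
    have hdvd : Nat.card N ∣ 60 := ⟨_, hmul.symm⟩
    by_cases h5i : 5 ∣ N.index
    · obtain ⟨x, hx⟩ := exists_prime_orderOf_dvd_card' (G := G) 5 (by rw [h60]; norm_num)
      have hmod := modEq_one_of_no_commute (N := N) hx (fun y hy hc => by
        by_contra hy1
        obtain ⟨p, hp, hpd⟩ := Nat.exists_prime_and_dvd (fun e => hy1 (orderOf_eq_one_iff.1 e))
        have hyN : orderOf y ∣ Nat.card N := by
          have := orderOf_dvd_natCard (⟨y, hy⟩ : N)
          rwa [Subgroup.orderOf_mk] at this
        have hp5 : p ≠ 5 := fun e => by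
          subst e
          obtain ⟨a, ha⟩ := hpd.trans hyN
          obtain ⟨b, hb⟩ := h5i
          rw [ha, hb] at hmul
          have : 25 ∣ 60 := ⟨a * b, by rw [← hmul]; ring⟩
          omega
        obtain ⟨z, hz⟩ : ∃ z, orderOf z = p ∧ Commute x z :=
          ⟨y ^ (orderOf y / p), by rw [orderOf_pow_orderOf_div (orderOf_pos y).ne' hpd],
            hc.pow_right _⟩
        have hxz : orderOf (x * z) = 5 * p := by
          rw [hz.2.orderOf_mul_eq_mul_orderOf_of_coprime
            (by rw [hx, hz.1]; exact (Nat.coprime_primes (by norm_num) hp).mpr hp5.symm), hx, hz.1]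
        have hne := H86.orderCount_pos (g := x * z)
        rw [hxz] at hne
        have hpd60 : p ∈ ({2, 3, 5} : Finset ℕ) := by
          have : p ∈ Nat.primeFactors 60 :=
            Nat.mem_primeFactors.mpr ⟨hp, hpd.trans (hyN.trans hdvd), by norm_num⟩
          exact (show Nat.primeFactors 60 ⊆ {2, 3, 5} by decide +kernel) this
        simp only [Finset.mem_insert, Finset.mem_singleton] at hpd60
        rcases hpd60 with rfl | rfl | rfl
        · norm_num [hzero.1] at hne
        · norm_num [hzero.2] at hne
        · exact hp5 rfl)
      have h12 : Nat.card N ∣ 12 := by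
        obtain ⟨b, hb⟩ := h5i
        exact ⟨b, by rw [hb] at hmul; linarith⟩
      have hle := Nat.le_of_dvd (by norm_num) h12
      have hN6 : Nat.card N = 6 := by
        unfold Nat.ModEq at hmod
        interval_cases hc6 : Nat.card N <;> omega
      have := sum_orderCount_lt_card (N := N) {3} (by decide) (by
        intro m hm
        rw [Finset.mem_singleton] at hm
        subst hm
        rw [show N.index = 10 by rw [hN6] at hmul; omega]
        decide)
      simp [h3] at this
      omega
    · have hcop : Nat.Coprime 5 N.index := (Fact.out : Nat.Prime 5).coprime_iff_not_dvd.mpr h5i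
      have h24 := sum_orderCount_lt_card (N := N) {5} (by decide) (by simpa using hcop)
      simp [h5] at h24
      have hidx : N.index = 2 := by
        have : N.index < 3 := by
          by_contra hlt
          push Not at hlt
          nlinarith
        omega
      have h44 := sum_orderCount_lt_card (N := N) {3, 5} (by decide) (by
        intro m hm
        simp only [Finset.mem_insert, Finset.mem_singleton] at hm
        rw [hidx]
        rcases hm with rfl | rfl <;> decide)
      simp [h3, h5] at h44
      rw [hidx] at hmul
      omega⟩
  exact Cfsg.Agent.S0494.result h60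

theorem six (hS : sizeSet G = {v | v = 1 ∨ v ∈ [45, 80, 90, 144]}) :
    Nonempty (G ≃* ↥(alternatingGroup (Fin 6))) := by
  classical
  have h := config_eq caseSix_valid hS caseSix_ok
  have hc := ordOf_config caseSix_valid hS
  rw [h] at hc
  have h360 : Nat.card G = 360 := hc.symm
  simp [caseSix, locOf, List.range_succ] at h
  have h2 : orderCount G 2 = 45 := odd_value caseSix_valid hS
  have h3 : orderCount G 3 = 80 := by simpa using h.2.1.2.1
  have h5 : orderCount G 5 = 144 := by simpa using h.2.2.1.2.1
  have h4 : orderCount G 4 = 90 := by simpa using h.1.2.2.1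
  have : Fact (Nat.Prime 5) := ⟨by norm_num⟩
  have : Fact (Nat.Prime 3) := ⟨Nat.prime_three⟩
  have hzero : orderCount G 10 = 0 ∧ orderCount G 15 = 0 := by
    have hs := card_eq_sum (G := G) (Nat.divisors 360) (fun m hm => Nat.mem_divisors.mpr
      ⟨h360 ▸ dvd_card_of_orderCount_ne_zero hm, by norm_num⟩)
    have hle := Finset.sum_le_sum_of_subset (f := orderCount G)
      (show ({1, 2, 3, 4, 5, 10, 15} : Finset ℕ) ⊆ Nat.divisors 360 by decide +kernel)
    simp [H86.orderCount_one, h2, h3, h4, h5] at hle
    omega
  have : Nontrivial G := Finite.one_lt_card_iff_nontrivial.mp (by omega)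
  have : IsSimpleGroup G := ⟨fun N hN => by
    by_contra hcon
    push Not at hcon
    have hmul := N.card_mul_index
    rw [h360] at hmul
    have h1 : 1 < Nat.card N := (one_lt_card_iff_ne_bot N).2 hcon.1
    have hi : N.index ≠ 1 := fun e => hcon.2 (index_eq_one.1 e)
    have hi0 := index_ne_zero_of_finite (H := N)
    have hdvd : Nat.card N ∣ 360 := ⟨_, hmul.symm⟩
    by_cases h5i : 5 ∣ N.index
    · obtain ⟨x, hx⟩ := exists_prime_orderOf_dvd_card' (G := G) 5 (by rw [h360]; norm_num)
      have hfix : ∀ y ∈ N, Commute x y → y = 1 := fun y hy hc => by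
        by_contra hy1
        obtain ⟨p, hp, hpd⟩ := Nat.exists_prime_and_dvd (fun e => hy1 (orderOf_eq_one_iff.1 e))
        have hyN : orderOf y ∣ Nat.card N := by
          have := orderOf_dvd_natCard (⟨y, hy⟩ : N)
          rwa [Subgroup.orderOf_mk] at this
        have hp5 : p ≠ 5 := fun e => by
          subst e
          obtain ⟨a, ha⟩ := hpd.trans hyN
          obtain ⟨b, hb⟩ := h5i
          rw [ha, hb] at hmul
          have : 25 ∣ 360 := ⟨a * b, by rw [← hmul]; ring⟩
          omega
        obtain ⟨z, hz⟩ : ∃ z, orderOf z = p ∧ Commute x z :=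
          ⟨y ^ (orderOf y / p), by rw [orderOf_pow_orderOf_div (orderOf_pos y).ne' hpd],
            hc.pow_right _⟩
        have hxz : orderOf (x * z) = 5 * p := by
          rw [hz.2.orderOf_mul_eq_mul_orderOf_of_coprime
            (by rw [hx, hz.1]; exact (Nat.coprime_primes (by norm_num) hp).mpr hp5.symm), hx, hz.1]
        have hne := H86.orderCount_pos (g := x * z)
        rw [hxz] at hne
        have hpd360 : p ∈ ({2, 3, 5} : Finset ℕ) := by
          have : p ∈ Nat.primeFactors 360 :=
            Nat.mem_primeFactors.mpr ⟨hp, hpd.trans (hyN.trans hdvd), by norm_num⟩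
          exact (show Nat.primeFactors 360 ⊆ {2, 3, 5} by decide +kernel) this
        simp only [Finset.mem_insert, Finset.mem_singleton] at hpd360
        rcases hpd360 with rfl | rfl | rfl
        · norm_num [hzero.1] at hne
        · norm_num [hzero.2] at hne
        · exact hp5 rfl
      have hmod := modEq_one_of_no_commute (N := N) hx hfix
      have h72 : Nat.card N ∣ 72 := by
        obtain ⟨b, hb⟩ := h5i
        exact ⟨b, by rw [hb] at hmul; linarith⟩
      have hN : Nat.card N = 6 ∨ Nat.card N = 36 := by
        have hmem : Nat.card N ∈ Nat.divisors 72 := Nat.mem_divisors.mpr ⟨h72, by norm_num⟩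
        have key : ∀ d ∈ Nat.divisors 72, d % 5 = 1 → d = 1 ∨ d = 6 ∨ d = 36 := by decide +kernel
        rcases key _ hmem hmod with h | h | h
        · omega
        · exact Or.inl h
        · exact Or.inr h
      rcases hN with hN6 | hN36
      · let K : Sylow 3 N := default
        have hK : Nat.card (K : Subgroup N) = 3 := by
          rw [H30.card_sylow_subgroup K (a := 1) (m := 2) (by rw [hN6]; norm_num) (by norm_num),
            pow_one]
        have hn1 : Nat.card (Sylow 3 N) = 1 := by
          have hd := H30.card_sylow_dvd (G := N) (p := 3) (a := 1) (m := 2)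
            (by rw [hN6]; norm_num) (by norm_num)
          have hle := Nat.le_of_dvd (by norm_num) hd
          have hm := card_sylow_modEq_one 3 N
          unfold Nat.ModEq at hm
          omega
        have : Subsingleton (Sylow 3 N) := (Nat.card_eq_one_iff_unique.mp hn1).1
        have : (K : Subgroup N).Characteristic :=
          Sylow.characteristic_of_normal K (Sylow.normal_of_subsingleton K)
        have hK' : ((K : Subgroup N).map N.subtype).Normal :=
          ConjAct.normal_of_characteristic_of_normal
        have hm := modEq_one_of_no_commute (N := (K : Subgroup N).map N.subtype) hx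
          (fun y hy => hfix y (map_subtype_le _ hy))
        rw [← Nat.card_congr ((K : Subgroup N).equivMapOfInjective _ N.subtype_injective).toEquiv,
          hK] at hm
        exact absurd hm (by decide)
      · have := sum_orderCount_lt_card (N := N) {3} (by decide) (by
          intro m hm
          rw [Finset.mem_singleton] at hm
          subst hm
          rw [show N.index = 10 by rw [hN36] at hmul; omega]
          decide)
        simp [h3] at this
        omega
    · have hcop : Nat.Coprime 5 N.index := (Fact.out : Nat.Prime 5).coprime_iff_not_dvd.mpr h5i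
      have h144 := sum_orderCount_lt_card (N := N) {5} (by decide) (by simpa using hcop)
      simp [h5] at h144
      have hidx : N.index = 2 := by
        have : N.index < 3 := by
          by_contra hlt
          push Not at hlt
          nlinarith
        omega
      have h224 := sum_orderCount_lt_card (N := N) {3, 5} (by decide) (by
        intro m hm
        simp only [Finset.mem_insert, Finset.mem_singleton] at hm
        rw [hidx]
        rcases hm with rfl | rfl <;> decide)
      simp [h3, h5] at h224
      rw [hidx] at hmul
      omega⟩
  exact Cfsg.Agent.S0497.result h360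

end Cfsg.Agent.H80.OrderTypeAlt
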