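import Cfsg.Agent.H80.OrderTypeAlt.Basic
import Cfsg.Agent.H80.OrderTypeAlt.Check

/-!
# Soundness of the arithmetical search
-/

namespace Cfsg.Agent.H80.OrderTypeAlt

open Cfsg.Agent.H86 (orderCount)

variable {G : Type*} [Group G] [Finite G]

/-- The genuine data at a prime. -/
noncomputable def locOf (G : Type*) [Group G] (x : ℕ × ℕ × ℕ) : Loc :=
  (x.1, (Nat.card G).factorization x.1,
    (List.range x.2.1).map fun j => orderCount G (x.1 ^ (j + 1)))

/-- Static conditions on a case. -/
structure Case.Valid (C : Case) : Prop where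
  odd_odd : Odd C.odd
  odd_one : 1 < C.odd
  evens_even : ∀ v ∈ C.evens, 2 ∣ v ∧ v ≠ 0
  nodup : (C.primes.map Prod.fst).Nodup
  prime : ∀ x ∈ C.primes, x.1.Prime ∧ 1 ≤ x.2.1 ∧ ∀ v ∈ C.evens, ¬ x.1 ^ x.2.1 ∣ v
  two : 2 ∈ C.primes.map Prod.fst
  cover : ∀ v ∈ C.evens, ∀ p ∈ List.range (v + 2),
    (v + 1) % p = 0 → v % (p - 1) = 0 → p.Prime → p ∈ C.primes.map Prod.fst
  bound : ∀ x ∈ C.primes, ∀ t ∈ tuples ((List.range x.2.1).map fun j => layerVals C x.1 (j + 1)),
    1 + t.sum < x.1 ^ x.2.2

theorem mem_tuples {α : Type} : ∀ {Ls : List (List α)} {vs : List α},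
    List.Forall₂ (fun v L => v ∈ L) vs Ls → vs ∈ tuples Ls
  | [], [], _ => by simp [tuples]
  | _ :: _, _ :: _, .cons h hs => by
    simp only [tuples, List.mem_flatMap, List.mem_map]
    exact ⟨_, h, _, mem_tuples hs, rfl⟩

theorem mem_tuples_map {α β : Type} (f : β → List α) (g : β → α) : ∀ (l : List β),
    (∀ b ∈ l, g b ∈ f b) → l.map g ∈ tuples (l.map f)
  | [], _ => by simp [tuples]
  | b :: l, h => by
    simp only [List.map_cons, tuples, List.mem_flatMap, List.mem_map]
    exact ⟨_, h b (by simp), _, mem_tuples_map f g l fun b hb => h b (by simp [hb]), rfl⟩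

variable {C : Case}

theorem odd_value (hV : C.Valid) (hS : sizeSet G = {v | v = 1 ∨ v ∈ C.odd :: C.evens}) :
    orderCount G 2 = C.odd := by
  obtain ⟨m, hm, hm0⟩ := exists_of_mem_sizeSet (G := G) (v := C.odd) (by rw [hS]; exact Or.inr (by simp))
  rcases lt_or_ge m 3 with h | h
  · interval_cases m
    · obtain ⟨g, hg⟩ := exists_of_orderCount_ne_zero hm0
      exact absurd hg (orderOf_pos g).ne'
    · rw [H86.orderCount_one] at hm
      exact absurd hm hV.odd_one.ne
    · exact hm
  · exact absurd (((H86.even_totient_of_three_le h).trans (H86.totient_dvd_orderCount m)).trans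
      (dvd_of_eq hm)) (by rw [← even_iff_two_dvd, Nat.not_even_iff_odd]; exact hV.odd_odd)

theorem count_cases (hV : C.Valid) (hS : sizeSet G = {v | v = 1 ∨ v ∈ C.odd :: C.evens})
    {m : ℕ} (hm : 3 ≤ m) :
    orderCount G m = 0 ∨ orderCount G m ∈ C.evens := by
  refine or_iff_not_imp_left.mpr fun h0 => ?_
  have h := orderCount_mem_sizeSet h0
  rw [hS] at h
  have he : 2 ∣ orderCount G m :=
    (H86.even_totient_of_three_le hm).trans (H86.totient_dvd_orderCount m)
  rcases h with h | h
  · omega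
  · rcases List.mem_cons.mp h with h | h
    · rw [h, ← even_iff_two_dvd, ← Nat.not_odd_iff_even] at he
      exact absurd hV.odd_odd he
    · exact h

theorem mem_primes (hV : C.Valid) (hS : sizeSet G = {v | v = 1 ∨ v ∈ C.odd :: C.evens})
    {p : ℕ} (hp : p.Prime) (hd : p ∣ Nat.card G) : p ∈ C.primes.map Prod.fst := by
  rcases hp.eq_two_or_odd' with rfl | hodd
  · exact hV.two
  · have := Fact.mk hp
    have h3 : 3 ≤ p := by
      have := hp.two_le
      rcases hodd with ⟨k, hk⟩
      omega
    have h1 := H86.prime_dvd_orderCount_add_one (G := G) hp hd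
    have h2 := H86.totient_dvd_orderCount (G := G) p
    rw [Nat.totient_prime hp] at h2
    have hv := (count_cases hV hS h3).resolve_left (orderCount_ne_zero_of_dvd hd)
    refine hV.cover _ hv p (List.mem_range.mpr ?_) (Nat.mod_eq_zero_of_dvd h1)
      (Nat.mod_eq_zero_of_dvd h2) hp
    have := Nat.le_of_dvd (by omega) h1
    omega

theorem mem_layerVals (hV : C.Valid) (hS : sizeSet G = {v | v = 1 ∨ v ∈ C.odd :: C.evens})
    {p i : ℕ} (hp : p.Prime) (hi : 1 ≤ i) : orderCount G (p ^ i) ∈ layerVals C p i := by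
  unfold layerVals
  split_ifs with h
  · rw [beq_iff_eq.mp h, odd_value hV hS]
    simp
  · rcases eq_or_ne (orderCount G (p ^ i)) 0 with h0 | h0
    · simp [h0]
    have h3 : 3 ≤ p ^ i := by
      have h2 : 2 ≤ p ^ i := le_trans hp.two_le (Nat.le_self_pow (by omega) p)
      have : p ^ i ≠ 2 := by simpa using h
      omega
    have hv := (count_cases hV hS h3).resolve_left h0
    refine List.mem_cons_of_mem _ (List.mem_filter.mpr ⟨hv, ?_⟩)
    have ht := H86.totient_dvd_orderCount (G := G) (p ^ i)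
    rw [Nat.totient_prime_pow hp (by omega)] at ht
    simp only [Bool.and_eq_true, beq_iff_eq, Bool.or_eq_true, Bool.not_eq_true',
      beq_eq_false_iff_ne, phiPow]
    refine ⟨Nat.mod_eq_zero_of_dvd ht, ?_⟩
    rcases eq_or_ne i 1 with rfl | hi1
    · right
      rw [pow_one] at h0 ⊢
      exact Nat.mod_eq_zero_of_dvd (H86.prime_dvd_orderCount_add_one hp
        (dvd_card_of_orderCount_ne_zero h0))
    · exact Or.inl hi1

theorem orderCount_pow_eq_zero (hV : C.Valid)
    (hS : sizeSet G = {v | v = 1 ∨ v ∈ C.odd :: C.evens}) {x : ℕ × ℕ × ℕ} (hx : x ∈ C.primes)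
    {i : ℕ} (hi : x.2.1 < i) : orderCount G (x.1 ^ i) = 0 := by
  obtain ⟨hp, hK, hnd⟩ := hV.prime x hx
  have h3 : 3 ≤ x.1 ^ i := by
    calc 3 ≤ 2 ^ 2 := by norm_num
      _ ≤ x.1 ^ 2 := Nat.pow_le_pow_left hp.two_le 2
      _ ≤ x.1 ^ i := Nat.pow_le_pow_right hp.pos (by omega)
  refine (count_cases hV hS h3).resolve_right fun hv => hnd _ hv ?_
  have ht := H86.totient_dvd_orderCount (G := G) (x.1 ^ i)
  rw [Nat.totient_prime_pow hp (by omega)] at ht
  exact ((pow_dvd_pow x.1 (show x.2.1 ≤ i - 1 by omega)).trans (dvd_mul_right _ _)).trans ht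

theorem getD_locOf {x : ℕ × ℕ × ℕ} (hK : ∀ i, x.2.1 < i → orderCount G (x.1 ^ i) = 0) (j : ℕ) :
    (locOf G x).2.2.getD j 0 = orderCount G (x.1 ^ (j + 1)) := by
  simp only [locOf, List.getD_eq_getElem?_getD, List.getElem?_map]
  rcases lt_or_ge j x.2.1 with h | h
  · simp [List.getElem?_range h]
  · rw [List.getElem?_eq_none (by simpa using h)]
    simp [hK (j + 1) (by omega)]

theorem mem_locals (hV : C.Valid) (hS : sizeSet G = {v | v = 1 ∨ v ∈ C.odd :: C.evens})
    {x : ℕ × ℕ × ℕ} (hx : x ∈ C.primes) : locOf G x ∈ locals C x := by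
  obtain ⟨hp, hK1, -⟩ := hV.prime x hx
  obtain ⟨p, K, E⟩ := x
  have := Fact.mk hp
  have hzero : ∀ i, K < i → orderCount G (p ^ i) = 0 := fun i hi =>
    orderCount_pow_eq_zero hV hS hx hi
  set t := (List.range K).map fun j => orderCount G (p ^ (j + 1)) with htdef
  have htmem : t ∈ tuples ((List.range K).map fun j => layerVals C p (j + 1)) :=
    mem_tuples_map _ _ _ fun j _ => mem_layerVals hV hS hp (by omega)
  set e := (Nat.card G).factorization p with hedef
  have hdvd : p ^ e ∣ Nat.card G := Nat.ordProj_dvd _ _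
  have hsum : p ^ e ∣ 1 + t.sum := by
    have h1 := pow_dvd_sum (G := G) hp hdvd
    rw [Finset.sum_range_succ', pow_zero, H86.orderCount_one, add_comm] at h1
    have h2 : ∑ i ∈ Finset.range e, orderCount G (p ^ (i + 1)) = t.sum := by
      rw [← List.sum_toFinset _ (List.nodup_range), List.toFinset_range]
      rcases le_total e K with h | h
      · refine Finset.sum_subset (Finset.range_mono h) fun i _ hi => ?_
        by_contra h0
        have h3 := dvd_card_of_orderCount_ne_zero h0
        rw [hp.pow_dvd_iff_le_factorization Nat.card_pos.ne', ← hedef] at h3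
        simp only [Finset.mem_range] at hi
        omega
      · exact (Finset.sum_subset (Finset.range_mono h) fun i _ hi => hzero _ (by
          simp only [Finset.mem_range] at hi; omega)).symm
    rwa [h2] at h1
  have hE : e < E := by
    by_contra hc
    have h1 : p ^ E ≤ p ^ e := Nat.pow_le_pow_right hp.pos (not_lt.mp hc)
    have h2 := Nat.le_of_dvd (by omega) hsum
    have h3 : 1 + t.sum < p ^ E := hV.bound (p, K, E) hx t htmem
    omega
  simp only [locals, List.mem_flatMap, List.mem_range, List.mem_map, List.mem_filter]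
  refine ⟨e, hE, t, ⟨htmem, ?_⟩, rfl⟩
  have hget : ∀ j, t.getD j 0 = orderCount G (p ^ (j + 1)) := fun j =>
    getD_locOf (x := (p, K, E)) hzero j
  simp only [locOK, Bool.and_eq_true, List.all_eq_true, Bool.or_eq_true, beq_iff_eq,
    decide_eq_true_eq, Bool.not_eq_true', beq_eq_false_iff_ne, hget, Nat.mod_eq_zero_of_dvd hsum,
    true_and]
  refine ⟨fun j _ => ⟨?_, ?_⟩, ?_⟩
  · rcases eq_or_ne (orderCount G (p ^ (j + 1))) 0 with h0 | h0
    · exact Or.inl h0
    · exact Or.inr ((hp.pow_dvd_iff_le_factorization Nat.card_pos.ne').mp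
        (dvd_card_of_orderCount_ne_zero h0))
  · rcases eq_or_ne (orderCount G (p ^ (j + 1))) 0 with h0 | h0
    · right
      by_contra h1
      obtain ⟨g, hg⟩ := exists_of_orderCount_ne_zero h1
      obtain ⟨h, hh⟩ := H86.exists_orderOf_eq_of_dvd' (g := g) (n := p ^ (j + 1))
        (hg ▸ pow_dvd_pow p (by omega))
      have := H86.orderCount_pos (g := h)
      rw [hh, h0] at this
      omega
    · exact Or.inl h0
  · rcases Nat.eq_zero_or_pos e with h0 | h0
    · exact Or.inl h0
    · right
      rw [zero_add, pow_one]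
      exact orderCount_ne_zero_of_dvd (Nat.dvd_of_factorization_pos (n := Nat.card G) (by omega))

theorem topOK_true (hV : C.Valid) (hS : sizeSet G = {v | v = 1 ∨ v ∈ C.odd :: C.evens})
    {x : ℕ × ℕ × ℕ} (hx : x ∈ C.primes) : topOK (Nat.card G) (locOf G x) = true := by
  obtain ⟨hp, -, -⟩ := hV.prime x hx
  have := Fact.mk hp
  have hget := getD_locOf (G := G) (x := x) fun i hi => orderCount_pow_eq_zero hV hS hx hi
  set e := (Nat.card G).factorization x.1 with hedef
  show topOK (Nat.card G) (x.1, e, (locOf G x).2.2) = true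
  simp only [topOK, Bool.or_eq_true, beq_iff_eq, Bool.and_eq_true, List.all_eq_true,
    decide_eq_true_eq, hget]
  refine or_iff_not_imp_left.mpr fun h => ?_
  push Not at h
  obtain ⟨he, hc⟩ := h
  have he1 : e - 1 + 1 = e := by omega
  rw [he1] at hc ⊢
  obtain ⟨htop, hle⟩ := sylow_cyclic_counts (p := x.1) (b := e) rfl hc
  have hpos : 0 < (x.1 ^ e).totient := Nat.totient_pos.mpr (pow_pos hp.pos _)
  have hphi : ∀ i, 1 ≤ i → phiPow x.1 i = (x.1 ^ i).totient := fun i hi =>
    (Nat.totient_prime_pow hp hi).symm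
  rw [hphi e (by omega)]
  have hn : orderCount G (x.1 ^ e) / (x.1 ^ e).totient = Nat.card (Sylow x.1 G) := by
    rw [htop, Nat.mul_div_cancel _ hpos]
  rw [hn]
  refine ⟨⟨⟨by rw [htop, Nat.mul_mod_left], ?_⟩, ?_⟩, fun j _ => ?_⟩
  · have := card_sylow_modEq_one x.1 G
    rwa [Nat.ModEq, Nat.one_mod_eq_one.mpr hp.ne_one] at this
  · let P : Sylow x.1 G := default
    have h1 := P.card_dvd_index
    have h2 : (P : Subgroup G).index = Nat.card G / x.1 ^ e := by
      rw [← (P : Subgroup G).card_mul_index, P.card_eq_multiplicity,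
        Nat.mul_div_cancel_left _ (pow_pos hp.pos _)]
    exact Nat.mod_eq_zero_of_dvd (h2 ▸ h1)
  · rw [hphi (j + 1) (by omega)]
    exact hle (j + 1)

/-- What a member of a list of factors records. -/
def FacOK (G : Type*) [Group G] (f : Fac) : Prop :=
  f.1.Prime ∧ 1 ≤ f.2.1 ∧ f.2.2.1 = (Nat.card G).factorization f.1 ∧
    f.2.2.2.1 = orderCount G f.1 ∧ f.2.2.2.2 = orderCount G (f.1 ^ f.2.1) ∧
    orderCount G (f.1 ^ f.2.1) ≠ 0

theorem factors_ok : ∀ (l : List (ℕ × ℕ × ℕ)),
    (∀ x ∈ l, x.1.Prime ∧ ∀ i, x.2.1 < i → orderCount G (x.1 ^ i) = 0) →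
    ∀ d ∈ factors (l.map (locOf G)), (∀ f ∈ d, FacOK G f) ∧
      (d.map Prod.fst).Sublist (l.map Prod.fst)
  | [], _, d, hd => by
    simp only [List.map_nil, factors, List.mem_singleton] at hd
    subst hd
    simp
  | x :: l, h, d, hd => by
    have hget := getD_locOf (G := G) (h x (by simp)).2
    simp only [List.map_cons, factors, List.mem_flatMap, List.mem_cons, List.mem_map,
      List.mem_filter, List.mem_range] at hd
    obtain ⟨r, hr, hd⟩ := hd
    obtain ⟨h1, h2⟩ := factors_ok l (fun y hy => h y (by simp [hy])) r hr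
    rcases hd with rfl | ⟨j, ⟨-, hj⟩, rfl⟩
    · exact ⟨h1, h2.trans (List.sublist_cons_self _ _)⟩
    · simp only [Bool.not_eq_true', beq_eq_false_iff_ne] at hj
      rw [hget] at hj
      refine ⟨?_, ?_⟩
      · rintro f hf
        rcases List.mem_cons.mp hf with rfl | hf
        · exact ⟨(h x (by simp)).1, by simp, rfl, by rw [hget, zero_add, pow_one]; rfl, hget j, hj⟩
        · exact h1 f hf
      · simp only [List.map_cons]
        exact h2.cons_cons _

theorem exists_factors : ∀ (l : List (ℕ × ℕ × ℕ)),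
    (∀ x ∈ l, x.1.Prime ∧ ∀ i, x.2.1 < i → orderCount G (x.1 ^ i) = 0) → (l.map Prod.fst).Nodup →
    ∀ m, orderCount G m ≠ 0 → (∀ p, p.Prime → p ∣ m → p ∈ l.map Prod.fst) →
      ∃ d ∈ factors (l.map (locOf G)), valueOf d = m
  | [], _, _, m, hm, hp => by
    refine ⟨[], by simp [factors], ?_⟩
    rcases eq_or_ne m 1 with rfl | h1
    · simp [valueOf]
    · obtain ⟨p, hpp, hpd⟩ := Nat.exists_prime_and_dvd h1
      exact absurd (hp p hpp hpd) (by simp)
  | x :: l, h, hnd, m, hm, hp => by
    have hget := getD_locOf (G := G) (h x (by simp)).2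
    have hpx := (h x (by simp)).1
    obtain ⟨g, hg⟩ := exists_of_orderCount_ne_zero hm
    have hm0 : m ≠ 0 := hg ▸ (orderOf_pos g).ne'
    set i := m.factorization x.1
    set m' := m / x.1 ^ i
    have hmm : x.1 ^ i * m' = m := Nat.ordProj_mul_ordCompl_eq_self m x.1
    have hm' : orderCount G m' ≠ 0 := by
      obtain ⟨k, hk⟩ := H86.exists_orderOf_eq_of_dvd' (g := g) (n := m') (hg ▸ ⟨_, by rw [mul_comm]; exact hmm.symm⟩)
      exact hk ▸ H86.orderCount_pos.ne'
    obtain ⟨r, hr, hrv⟩ := exists_factors l (fun y hy => h y (by simp [hy]))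
      (List.nodup_cons.mp hnd).2 m' hm' (fun p hpp hpd => by
        have := hp p hpp (hmm ▸ dvd_mul_of_dvd_right hpd _)
        simp only [List.map_cons, List.mem_cons] at this
        refine this.resolve_left fun e => ?_
        subst e
        exact Nat.not_dvd_ordCompl hpp hm0 hpd)
    simp only [List.map_cons, factors, List.mem_flatMap, List.mem_cons, List.mem_map,
      List.mem_filter, List.mem_range]
    rcases Nat.eq_zero_or_pos i with hi | hi
    · refine ⟨r, ⟨r, hr, Or.inl rfl⟩, ?_⟩
      rw [hrv, ← hmm, hi, pow_zero, one_mul]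
    · have hne : orderCount G (x.1 ^ (i - 1 + 1)) ≠ 0 := by
        rw [Nat.sub_add_cancel hi]
        obtain ⟨k, hk⟩ := H86.exists_orderOf_eq_of_dvd' (g := g) (n := x.1 ^ i)
          (hg ▸ ⟨m', hmm.symm⟩)
        exact hk ▸ H86.orderCount_pos.ne'
      refine ⟨_, ⟨r, hr, Or.inr ⟨i - 1, ⟨?_, ?_⟩, rfl⟩⟩, ?_⟩
      · by_contra hc
        have hlen : (locOf G x).2.2.length = x.2.1 := by simp [locOf]
        exact hne ((h x (by simp)).2 _ (by
          rw [show (locOf G x).2.2.length = x.2.1 from hlen] at hc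
          omega))
      · simp only [Bool.not_eq_true', beq_eq_false_iff_ne]
        rw [hget]
        exact hne
      · show valueOf ((x.1, i - 1 + 1, _, _, _) :: r) = m
        simp only [valueOf, List.map_cons, List.prod_cons] at hrv ⊢
        rw [hrv, Nat.sub_add_cancel hi, hmm]

theorem totient_valueOf : ∀ (d : List Fac), (∀ f ∈ d, FacOK G f) → (d.map Prod.fst).Nodup →
    (valueOf d).totient = phiOf d ∧ ∀ p, p.Prime → p ∣ valueOf d → p ∈ d.map Prod.fst
  | [], _, _ => by
    refine ⟨by simp [valueOf, phiOf], fun p hp h => ?_⟩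
    simp [valueOf] at h
    exact absurd h hp.ne_one
  | f :: d, h, hnd => by
    obtain ⟨h1, h2⟩ := totient_valueOf d (fun g hg => h g (by simp [hg])) (List.nodup_cons.mp hnd).2
    obtain ⟨hp, hi, -⟩ := h f (by simp)
    have hnm : f.1 ∉ d.map Prod.fst := (List.nodup_cons.mp hnd).1
    constructor
    · simp only [valueOf, phiOf, List.map_cons, List.prod_cons] at h1 ⊢
      rw [Nat.totient_mul, h1, phiPow, Nat.totient_prime_pow hp hi]
      exact (hp.coprime_iff_not_dvd.mpr fun hd => hnm (h2 _ hp hd)).pow_left _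
    · intro p hpp hd
      simp only [valueOf, List.map_cons, List.prod_cons] at hd
      rcases hpp.dvd_mul.mp hd with hd | hd
      · simp [(Nat.prime_dvd_prime_iff_eq hpp hp).mp (hpp.dvd_of_dvd_pow hd)]
      · simp only [List.map_cons, List.mem_cons]
        exact Or.inr (h2 p hpp hd)

theorem mem_countVals (hV : C.Valid) (hS : sizeSet G = {v | v = 1 ∨ v ∈ C.odd :: C.evens})
    (d : List Fac) (hd : ∀ f ∈ d, FacOK G f) (hnd : (d.map Prod.fst).Nodup) :
    orderCount G (valueOf d) ∈ countVals C d := by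
  match d, hd, hnd with
  | [], _, _ => simp [countVals, valueOf, H86.orderCount_one]
  | [f], hd, _ =>
    have h := (hd f (by simp)).2.2.2.2.1
    simp [countVals, valueOf, h]
  | f₁ :: f₂ :: d, hd, hnd =>
    simp only [countVals]
    rcases eq_or_ne (orderCount G (valueOf (f₁ :: f₂ :: d))) 0 with h0 | h0
    · simp [h0]
    set D := f₁ :: f₂ :: d with hD
    have hm3 : 3 ≤ valueOf D := by
      obtain ⟨hp1, hi1, -⟩ := hd f₁ (by simp [hD])
      obtain ⟨hp2, hi2, -⟩ := hd f₂ (by simp [hD])
      have ha : 2 ≤ f₁.1 ^ f₁.2.1 := le_trans hp1.two_le (Nat.le_self_pow (by omega) _)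
      have hb : 2 ≤ f₂.1 ^ f₂.2.1 := le_trans hp2.two_le (Nat.le_self_pow (by omega) _)
      have he : valueOf D = f₁.1 ^ f₁.2.1 * (f₂.1 ^ f₂.2.1 * valueOf d) := by
        simp [hD, valueOf]
      have hc : 0 < valueOf d := Nat.pos_of_ne_zero fun h => by
        obtain ⟨g, hg⟩ := exists_of_orderCount_ne_zero h0
        rw [he, h, mul_zero, mul_zero] at hg
        exact (orderOf_pos g).ne' hg
      rw [he]
      calc 3 ≤ 2 * (2 * 1) := by norm_num
        _ ≤ _ := Nat.mul_le_mul ha (Nat.mul_le_mul hb hc)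
    have hv := (count_cases hV hS hm3).resolve_left h0
    refine List.mem_cons_of_mem _ (List.mem_filter.mpr ⟨hv, ?_⟩)
    simp only [Bool.and_eq_true, beq_iff_eq, List.all_eq_true, Bool.or_eq_true,
      Bool.not_eq_true', beq_eq_false_iff_ne]
    refine ⟨Nat.mod_eq_zero_of_dvd
      ((totient_valueOf D hd hnd).1 ▸ H86.totient_dvd_orderCount (valueOf D)), fun f hf => ?_⟩
    obtain ⟨hp, hi, hfe, hc, -, hne⟩ := hd f hf
    rcases eq_or_ne f.2.2.1 1 with he | he
    swap
    · exact Or.inl he
    right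
    have := Fact.mk hp
    have hb : (Nat.card G).factorization f.1 = 1 := hfe ▸ he
    have hi1 : f.2.1 = 1 := by
      have h := (hp.pow_dvd_iff_le_factorization Nat.card_pos.ne').mp
        (dvd_card_of_orderCount_ne_zero hne)
      omega
    have hperm := List.perm_cons_erase hf
    have hnd' : ((f :: D.erase f).map Prod.fst).Nodup := (hperm.map _).nodup_iff.mp hnd
    have hd' : ∀ g ∈ f :: D.erase f, FacOK G g := fun g hg => hd g (hperm.symm.subset hg)
    obtain ⟨hphi, hdiv⟩ := totient_valueOf (D.erase f) (fun g hg => hd' g (by simp [hg]))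
      (List.nodup_cons.mp hnd').2
    have hk : ¬ f.1 ∣ valueOf (D.erase f) := fun h =>
      (List.nodup_cons.mp hnd').1 (hdiv _ hp h)
    have hval : valueOf D = f.1 * valueOf (D.erase f) := by
      rw [valueOf, (hperm.map _).prod_eq]
      simp [valueOf, hi1]
    have hphiD : phiOf D = phiPow f.1 f.2.1 * phiOf (D.erase f) := by
      rw [phiOf, (hperm.map _).prod_eq]
      simp [phiOf]
    obtain ⟨e, he', heq⟩ := orderCount_prime_mul hb hk
    rw [hphiD, Nat.mul_div_cancel_left _ (by simp [phiPow, hi1, hp.one_lt]), hval, heq, hc,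
      ← hphi]
    exact Nat.mod_eq_zero_of_dvd (Nat.mul_dvd_mul_left _ he')

theorem mark_foldr (S : List ℕ) : ∀ vs : List ℕ,
    vs.foldr (mark S) (S.map fun _ => false) = S.map fun s => decide (s ∈ vs)
  | [] => by simp
  | v :: vs => by
    rw [List.foldr_cons, mark_foldr S vs, mark]
    induction S with
    | nil => rfl
    | cons s S ih =>
      simp only [List.map_cons, List.zipWith_cons_cons, ih]
      by_cases h : s = v <;> simp [h]

theorem mem_reach (o : ℕ) (S : List ℕ) : ∀ {Ls : List (List ℕ)} {vs : List ℕ},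
    List.Forall₂ (fun v L => v ∈ L) vs Ls → vs.sum ≤ o →
    (vs.sum, vs.foldr (mark S) (S.map fun _ => false)) ∈ reach o S Ls
  | [], [], _, _ => by simp [reach]
  | L :: Ls, v :: vs, .cons h hs, hle => by
    rw [List.sum_cons] at hle
    simp only [reach, List.mem_flatMap, List.mem_map, List.mem_filter]
    refine ⟨_, mem_reach o S hs (by omega), v, ⟨h, ?_⟩, ?_⟩
    · simp only [decide_eq_true_eq]
      omega
    · simp [List.sum_cons, add_comm]

theorem ordOf_config (hV : C.Valid) (hS : sizeSet G = {v | v = 1 ∨ v ∈ C.odd :: C.evens}) :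
    ordOf (C.primes.map (locOf G)) = Nat.card G := by
  set cfg := C.primes.map (locOf G) with hcfg
  have h1 : ordOf cfg = ∏ p ∈ (C.primes.map Prod.fst).toFinset,
      p ^ (Nat.card G).factorization p := by
    rw [List.prod_toFinset _ hV.nodup, List.map_map]
    simp [ordOf, hcfg, List.map_map, Function.comp_def, locOf]
  rw [h1]
  conv_rhs => rw [← Nat.prod_factorization_pow_eq_self (Nat.card_pos (α := G)).ne']
  refine (Finsupp.prod_of_support_subset _ (fun p hp => ?_) _ (fun i _ => pow_zero i)).symm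
  rw [Nat.support_factorization, Nat.mem_primeFactors] at hp
  exact List.mem_toFinset.mpr (mem_primes hV hS hp.1 hp.2.1)

/-- The search is sound. -/
theorem config_eq (hV : C.Valid) (hS : sizeSet G = {v | v = 1 ∨ v ∈ C.odd :: C.evens})
    {target : List Loc} (hok : caseOK C target = true) :
    C.primes.map (locOf G) = target := by
  have hmem : C.primes.map (locOf G) ∈ tuples (C.primes.map (locals C)) :=
    mem_tuples_map _ _ _ fun x hx => mem_locals hV hS hx
  have h := List.all_eq_true.mp hok _ hmem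
  simp only [Bool.or_eq_true, beq_iff_eq] at h
  refine h.resolve_right fun hdead => ?_
  set cfg := C.primes.map (locOf G) with hcfg
  have hord : ordOf cfg = Nat.card G := ordOf_config hV hS
  simp only [dead, hord, Bool.or_eq_true, Bool.not_eq_true', Bool.and_eq_true,
    decide_eq_true_eq, ← Bool.not_eq_true] at hdead
  rcases hdead with hdead | ⟨hnd, hdead⟩
  · refine hdead (List.all_eq_true.mpr fun y hy => ?_)
    obtain ⟨x, hx, rfl⟩ := List.mem_map.mp hy
    exact topOK_true hV hS hx
  · have hl : ∀ x ∈ C.primes, x.1.Prime ∧ ∀ i, x.2.1 < i → orderCount G (x.1 ^ i) = 0 :=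
      fun x hx => ⟨(hV.prime x hx).1, fun i hi => orderCount_pow_eq_zero hV hS hx hi⟩
    set L := factors cfg with hL
    set vs := L.map fun d => orderCount G (valueOf d)
    have hcov : ∀ m, orderCount G m ≠ 0 → m ∈ (L.map valueOf).toFinset := by
      intro m hm
      obtain ⟨d, hd, rfl⟩ := exists_factors C.primes hl hV.nodup m hm (fun p hp hpd =>
        mem_primes hV hS hp (hpd.trans (dvd_card_of_orderCount_ne_zero hm)))
      simpa using ⟨d, hd, rfl⟩
    have hsum : vs.sum = Nat.card G := by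
      rw [card_eq_sum _ hcov, List.sum_toFinset _ hnd, List.map_map]
      rfl
    have hvals : List.Forall₂ (fun v Lv => v ∈ Lv) vs (L.map (countVals C)) := by
      rw [List.forall₂_map_left_iff, List.forall₂_map_right_iff]
      refine List.forall₂_same.mpr fun d hd => ?_
      obtain ⟨h1, h2⟩ := factors_ok C.primes hl d hd
      exact mem_countVals hV hS d h1 (h2.nodup hV.nodup)
    rcases hdead with hdead | hdead
    · refine absurd hdead (not_lt.mpr ?_)
      rw [← hsum]
      have key : ∀ {vs : List ℕ} {Ls : List (List ℕ)}, List.Forall₂ (fun v L => v ∈ L) vs Ls →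
          vs.sum ≤ (Ls.map fun L => L.foldr max 0).sum := by
        intro vs Ls h
        induction h with
        | nil => simp
        | cons h _ ih =>
          simp only [List.map_cons, List.sum_cons]
          exact Nat.add_le_add (List.le_max_of_le h le_rfl) ih
      exact key hvals
    · refine hdead (List.any_eq_true.mpr ⟨_, mem_reach _ _ hvals hsum.le, ?_⟩)
      simp only [Bool.and_eq_true, beq_iff_eq, hsum, true_and, List.all_eq_true, id_eq,
        mark_foldr, List.mem_map]
      rintro b ⟨s, hs, rfl⟩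
      simp only [decide_eq_true_eq]
      obtain ⟨m, hm, hm0⟩ := exists_of_mem_sizeSet (G := G) (v := s) (by rw [hS]; exact Or.inr hs)
      have := hcov m hm0
      rw [List.mem_toFinset] at this
      obtain ⟨d, hd, rfl⟩ := List.mem_map.mp this
      exact List.mem_map.mpr ⟨d, hd, hm⟩

end Cfsg.Agent.H80.OrderTypeAlt
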